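import Mathlib
import Cfsg.Agent.Lib.Helper8.SPTEN.Defs
import Cfsg.Agent.Lib.Helper36.AltEven

/-!
# SPTEN (S5980, helper8): package [ALTEVEN]
-/

set_option autoImplicit false

namespace Cfsg.Agent.Lib.Helper32.SPTEN

open Cfsg.Agent.Lib.Helper8.SPTEN

universe u

/-- **[ALTEVEN]** a skew-symmetric matrix in characteristic `≠ 2` has even rank. -/
theorem pkgAltEven : PkgAltEven.{u} := by
  intro F _ n S h2 hS
  apply Cfsg.Agent.Lib.Helper36.even_rank_of_alt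
  intro v
  have h1 : v ⬝ᵥ S.mulVec v = -(v ⬝ᵥ S.mulVec v) := by
    calc v ⬝ᵥ S.mulVec v = (Matrix.vecMul v S) ⬝ᵥ v := Matrix.dotProduct_mulVec v S v
      _ = (S.transpose.mulVec v) ⬝ᵥ v := by rw [Matrix.mulVec_transpose]
      _ = ((-S).mulVec v) ⬝ᵥ v := by rw [hS]
      _ = -(S.mulVec v ⬝ᵥ v) := by rw [Matrix.neg_mulVec, neg_dotProduct]
      _ = -(v ⬝ᵥ S.mulVec v) := by rw [dotProduct_comm]
  have h3 : (2 : F) * (v ⬝ᵥ S.mulVec v) = 0 := by
    rw [two_mul]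
    nth_rewrite 1 [h1]
    exact neg_add_cancel _
  rcases mul_eq_zero.1 h3 with h | h
  · exact absurd h h2
  · exact h
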